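import Cfsg.Agent.Lib.SporadicOut.HeCheck
import Cfsg.Agent.Lib.SporadicOut.HeCheckTab
import Cfsg.Agent.Lib.SporadicOut.HeCheckRel
import Cfsg.Agent.Lib.SporadicOut.Auto
import Cfsg.Agent.Lib.SporadicOut.Rigid
import Cfsg.Agent.S1695

/-!
The outer automorphism group of the Held group has order two.
-/

set_option autoImplicit false
set_option linter.all false

namespace CfsgLib.SporadicOut.He

open CfsgLib.SporRecognition.CosetCert
open CfsgLib.SporRecognition.Cert.He2058 (certified subT subT_spec lab lab_spec tabs)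

local instance fact_prime_seventeen_he : Fact (Nat.Prime 17) := ⟨by norm_num⟩

abbrev heRels : Set (FreeGroup Cfsg.Spor.He.Gen) :=
  Cfsg.Spor.coxRelators Cfsg.Spor.He.edges ∪ {r | r ∈ Cfsg.Spor.He.extra}

abbrev HeG : Type := PresentedGroup heRels

/-- The action on the cosets. -/
noncomputable abbrev act : HeG →* Equiv.Perm (Fin 2058) := certified.hom

theorem isHe : Cfsg.IsHe HeG := Cfsg.Agent.S1695.result

theorem simple : IsSimpleGroup HeG := isHe.1

theorem card_heG : Nat.card HeG = 4030387200 := isHe.2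

instance finite_heG : Finite HeG := Nat.finite_of_card_ne_zero (by rw [card_heG]; norm_num)

theorem act_injective : Function.Injective act := hom_injective certified simple (by norm_num)

/-- The generators. -/
noncomputable def gs : List HeG :=
  ([.a, .b, .c, .d, .e, .f, .g] : List Cfsg.Spor.He.Gen).map (PresentedGroup.of (rels := heRels))

theorem gs_tabs : HasTabs act gs gts :=
  .cons (hasTab_of certified _) <| .cons (hasTab_of certified _) <| .cons (hasTab_of certified _) <|
  .cons (hasTab_of certified _) <| .cons (hasTab_of certified _) <| .cons (hasTab_of certified _) <|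
  .cons (hasTab_of certified _) .nil

noncomputable def eA : HeG := wVal gs wA
noncomputable def eB : HeG := wVal gs wB
noncomputable def eX : HeG := wVal gs wX

theorem eABX_tab : HasTabs act [eA, eB, eX] [tA, tB, tX] := gs_tabs.map_wVal (ws := [wA, wB, wX]) tabABX rfl

theorem eA_tab : HasTab act eA tA := eABX_tab.get 0
theorem eB_tab : HasTab act eB tB := eABX_tab.get 1
theorem eX_tab : HasTab act eX tX := eABX_tab.get 2

/-- The derived generators. -/
noncomputable def e5 : List HeG := [eA, eA⁻¹, eB, eB⁻¹, eX]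

theorem e5_tabs : HasTabs act e5 g5 :=
  .cons eA_tab <| .cons (eA_tab.inv invA) <| .cons eB_tab <| .cons (eB_tab.inv invB) <|
  .cons eX_tab .nil

noncomputable def eA3 : HeG := wVal e5 [0, 0, 0]
noncomputable def eX2 : HeG := wVal e5 ([4] ++ wC.getD 2 [])

theorem eA3X2_tab : HasTabs act [eA3, eX2] [tA3, tX2] := e5_tabs.map_wVal (ws := [[0, 0, 0], [4] ++ wC.getD 2 []]) tabA3X2 rfl

theorem eA3_tab : HasTab act eA3 tA3 := eA3X2_tab.get 0
theorem eX2_tab : HasTab act eX2 tX2 := eA3X2_tab.get 1

theorem eA3_eq : eA3 = eA ^ 3 := by simp [eA3, wVal, e5, pow_three]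

/-- The images. -/
noncomputable def eS : List HeG := [eA3, eA3⁻¹, eB, eB⁻¹, eX2]

theorem eS_tabs : HasTabs act eS gS :=
  .cons eA3_tab <| .cons (eA3_tab.inv invA3) <| .cons eB_tab <| .cons (eB_tab.inv invB) <|
  .cons eX2_tab .nil

theorem realised_stp (j : Nat) :
    ∃ q ∈ act.range, ∀ u : Fin 2058, ((q u : Fin 2058) : Nat) = stp j u := by
  have h : ∀ a : Cfsg.Spor.He.Gen,
      ∃ q ∈ act.range, ∀ u : Fin 2058, ((q u : Fin 2058) : Nat) = tabs a true u :=
    fun a => ⟨_, ⟨PresentedGroup.of a, rfl⟩, hasTab_of certified a⟩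
  unfold stp
  cases Nat.blt j 4 <;> cases Nat.blt j 2 <;> cases Nat.beq j 0 <;> cases Nat.beq j 2 <;>
    cases Nat.blt j 6 <;> cases Nat.beq j 4 <;>
    first
      | exact h .a
      | exact h .b
      | exact h .c
      | exact h .d
      | exact h .e
      | exact h .f
      | exact h .g

theorem label_inv (g : HeG) (x y : Fin 2058) :
    lbl (act g x : Fin 2058) (act g y : Fin 2058) = lbl x y :=
  pairLab_inv (Q := act.range) realised_stp par lab 17 12 down_ok
    (lab_stab certified subT subT_spec lab lab_spec) ⟨g, rfl⟩ x y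

theorem comm_of_tables {hs : List HeG} {ths : List (Nat → Nat)} (h : HasTabs act hs ths) {z : HeG}
    {t : Nat → Nat} (hz : HasTab act z t)
    (hc : (ths.all fun th => allBelow 12 2058 fun u => Nat.beq (th (t u)) (t (th u))) = true) :
    ∀ g ∈ hs, g * z = z * g := by
  induction h with
  | nil => simp
  | @cons g th gs ths hg _ ih =>
    rw [List.all_cons, Bool.and_eq_true] at hc
    intro e he
    rcases List.mem_cons.1 he with rfl | he
    · refine act_injective (Equiv.ext fun u => Fin.ext ?_)
      rw [map_mul, map_mul, Equiv.Perm.mul_apply, Equiv.Perm.mul_apply, hg, hz, hz, hg]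
      exact Nat.eq_of_beq_eq_true (allBelow_spec hc.1 u u.2)
    · exact ih hc.2 e he

theorem cent_a (g : HeG) (hg : g * eA = eA * g) : g ∈ Subgroup.zpowers eA := by
  have h := e5_tabs.map_wVal (ws := (List.range 17).map fun k => List.replicate k 0) tabPow rfl
  have hmem := mem_of_search act_injective label_inv eA_tab eA_tab searchA keyA_ok sepA_ok coverA h
    leavesA_eq (comm_of_tables h eA_tab powA_comm) hg
  simp only [List.mem_map, List.mem_range] at hmem
  obtain ⟨w, ⟨k, -, rfl⟩, rfl⟩ := hmem
  have : wVal e5 (List.replicate k 0) = eA ^ k := by simp [wVal, e5]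
  rw [this]
  exact Subgroup.npow_mem_zpowers eA k

theorem no_conj_cube (g : HeG) : g * eA ≠ eA3 * g := fun hg => by
  obtain ⟨l, hl, -⟩ := staged_sound (fun x y => label_inv g x y) eA_tab eA3_tab hg searchA3 []
    (by simp) rfl (by simp)
  simp at hl

theorem cent_b (g : HeG) (hg : g * eB = eB * g) : ∃ i < 16, g = wVal e5 (wC.getD i []) := by
  have h := e5_tabs.map_wVal (ws := wC) tabCent rfl
  have hmem := mem_of_search act_injective label_inv eB_tab eB_tab searchB keyB_ok sepB_ok coverB h
    leavesB_eq (comm_of_tables h eB_tab centB_comm) hg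
  obtain ⟨w, hw, rfl⟩ := List.mem_map.1 hmem
  obtain ⟨i, hi, rfl⟩ := List.getElem_of_mem hw
  exact ⟨i, hi, by rw [List.getD_eq_getElem _ _ hi]⟩

theorem eA_ne_one : eA ≠ 1 := fun h => no_conj_cube 1 (by simp [eA3_eq, h])

theorem orderOf_eA : orderOf eA = 17 := by
  refine orderOf_eq_prime (act_injective (Equiv.ext fun u => Fin.ext ?_)) eA_ne_one
  rw [map_pow, map_one]
  have : ∀ k : ℕ, ∀ v : Fin 2058, (((act eA) ^ k) v : ℕ) = iter tA k v := by
    intro k
    induction k with
    | zero => exact fun v => rfl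
    | succ k ih => intro v; rw [pow_succ, Equiv.Perm.mul_apply, ih, iter_succ, eA_tab v]
  rw [this]
  exact Nat.eq_of_beq_eq_true (allBelow_spec a_pow u u.2)

theorem eB_eA : eB * eA * eB⁻¹ = eA ^ 2 := by
  rw [mul_inv_eq_iff_eq_mul, pow_two]
  refine act_injective (Equiv.ext fun u => Fin.ext ?_)
  simp only [map_mul, Equiv.Perm.mul_apply]
  rw [eB_tab, eA_tab, eA_tab, eA_tab, eB_tab]
  exact Nat.eq_of_beq_eq_true (allBelow_spec b_conj u u.2)

theorem eX_eB : eX * eB * eX⁻¹ = eB⁻¹ := by
  rw [mul_inv_eq_iff_eq_mul]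
  refine act_injective (Equiv.ext fun u => Fin.ext ?_)
  simp only [map_mul, Equiv.Perm.mul_apply]
  rw [eX_tab, eB_tab, eB_tab.inv invB, eX_tab]
  exact Nat.eq_of_beq_eq_true (allBelow_spec x_conj u u.2)

theorem genIdx (a : Cfsg.Spor.He.Gen) :
    ∃ w, PresentedGroup.of (rels := heRels) a = wVal e5 w := by
  have h := e5_tabs.map_wVal (ws := wGen) tabGen rfl
  have key : ∀ i < 7, gs.getD i 1 = wVal e5 (wGen.getD i []) := fun i hi => by
    refine act_injective (Equiv.ext fun u => Fin.ext ?_)
    have hl : i < wGen.length := by simp [wGen]; omega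
    have := h.get i u
    rw [List.getD_eq_getElem _ _ (by simp; exact hl), List.getElem_map] at this
    rw [gs_tabs.get i u, List.getD_eq_getElem _ _ hl, this]
  cases a
  exacts [⟨_, key 0 (by norm_num)⟩, ⟨_, key 1 (by norm_num)⟩, ⟨_, key 2 (by norm_num)⟩,
    ⟨_, key 3 (by norm_num)⟩, ⟨_, key 4 (by norm_num)⟩, ⟨_, key 5 (by norm_num)⟩,
    ⟨_, key 6 (by norm_num)⟩]

/-- The images of the generators under the outer automorphism. -/
noncomputable def img : Cfsg.Spor.He.Gen → HeG
  | .a => wVal eS (wGen.getD 0 [])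
  | .b => wVal eS (wGen.getD 1 [])
  | .c => wVal eS (wGen.getD 2 [])
  | .d => wVal eS (wGen.getD 3 [])
  | .e => wVal eS (wGen.getD 4 [])
  | .f => wVal eS (wGen.getD 5 [])
  | .g => wVal eS (wGen.getD 6 [])

theorem exists_outer : ∃ σ : MulAut HeG, σ eA = eA3 ∧ σ eB = eB := by
  have h := eS_tabs.map_wVal (ws := wGen) tabImg rfl
  set tabs' : Cfsg.Spor.He.Gen → Bool → Nat → Nat := fun a _ => match a with
    | Cfsg.Spor.He.Gen.a => tS0 | .b => tS1 | .c => tS2 | .d => tS3 | .e => tS4 | .f => tS5
    | .g => tS6 with htabs'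
  have hinv : ∀ t ∈ imgTs, allBelow 12 2058 (invStep t t 2058) = true := by
    have := img_inv
    rwa [List.all_eq_true] at this
  have hT : TablesOK tabs' 2058 := tablesOK_of_checks (d := 12) fun a b => by
    cases a <;> exact hinv _ (by simp [imgTs, htabs'])
  have hf : ∀ a, HasTab act (img a) (tabs' a true) := by
    intro a
    cases a
    exacts [h.get 0, h.get 1, h.get 2, h.get 3, h.get 4, h.get 5, h.get 6]
  obtain ⟨σ, hσ⟩ := exists_aut certified simple (by norm_num) hT img hf
    (lift_eq_one_of_coxW (edges := Cfsg.Spor.He.edges)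
      (pairs := CfsgLib.SporRecognition.Cert.He2058.pairs) (extra := Cfsg.Spor.He.extra)
      (extraW := CfsgLib.SporRecognition.Cert.He2058.extraW) (by decide +kernel) rfl _
      fun w hw => evalW_tabPerm_eq_one hT (by
        have hr := img_rel
        rw [List.all_eq_true] at hr
        exact trace_of_fixStep (hr w (by
          have he : coxW Cfsg.Spor.He.edges CfsgLib.SporRecognition.Cert.He2058.pairs
            CfsgLib.SporRecognition.Cert.He2058.extraW =
            CfsgLib.SporRecognition.Cert.He2058.relW := by decide +kernel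
          rwa [he] at hw))))
    (a₀ := .a) (by
      intro h0
      have hb : (List.range 2058).any (fun u => !Nat.beq (tS0 u) u) = true := by decide +kernel
      simp only [List.any_eq_true, List.mem_range, Bool.not_eq_true'] at hb
      obtain ⟨u, hu, hne⟩ := hb
      have he := (hf .a) ⟨u, hu⟩
      rw [h0, map_one] at he
      change u = tS0 u at he
      rw [← he] at hne
      simp at hne)
  have hmap : gs.map (σ : HeG →* HeG) = wGen.map (wVal eS) := by
    simp only [gs, List.map_map, List.map_cons, List.map_nil, Function.comp_apply, MonoidHom.coe_coe,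
      hσ]
    rfl
  have hab := h.map_wVal (ws := [wA, wB]) img_ab rfl
  refine ⟨σ, ?_, ?_⟩
  · show (σ : HeG →* HeG) eA = eA3
    rw [eA, map_wVal, hmap]
    exact act_injective (Equiv.ext fun u => Fin.ext ((hab.get 0 u).trans (eA3_tab u).symm))
  · show (σ : HeG →* HeG) eB = eB
    conv_lhs => rw [eB, map_wVal, hmap]
    exact act_injective (Equiv.ext fun u => Fin.ext ((hab.get 1 u).trans (eB_tab u).symm))

theorem fix_trivial {ψ : MulAut HeG} (ha : ψ eA = eA) (hb : ψ eB = eB) : ψ = 1 := by
  refine eq_one_of_fix genIdx ?_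
  have hx : ψ eX = eX := by
    have hx' : ψ eX * eB * (ψ eX)⁻¹ = eB⁻¹ := by
      have e := congrArg ψ eX_eB
      simp only [map_mul, map_inv, hb] at e
      exact e
    have hcomm : eX⁻¹ * ψ eX * eB = eB * (eX⁻¹ * ψ eX) := by
      have e1 : ψ eX * eB = eB⁻¹ * ψ eX := mul_inv_eq_iff_eq_mul.1 hx'
      have e2 : eX⁻¹ * eB⁻¹ = eB * eX⁻¹ := by
        rw [← eX_eB]; group
      rw [mul_assoc, e1, ← mul_assoc, e2, mul_assoc]
    obtain ⟨i, hi, hc⟩ := cent_b _ hcomm
    have hval : ψ eX = eX * wVal e5 (wC.getD i []) := by rw [← hc, mul_inv_cancel_left]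
    rcases Nat.eq_zero_or_pos i with rfl | hpos
    · rw [hval]
      simp [wVal, wC]
    exfalso
    obtain ⟨j, rfl⟩ : ∃ j, i = j + 1 := ⟨i - 1, by omega⟩
    have hj : j < rels.length := by simp [rels]; omega
    set r := rels.getD j ([], 0) with hr
    have hrel : wVal e5 r.1 = 1 := by
      have h := e5_tabs.map_wVal (ws := rels.map Prod.fst) rels_hold rfl
      have e1 : getT (List.replicate 15 fun u => u) j = fun u => u := by
        rw [getT, List.getD_eq_getElem _ _ (by simpa [rels] using hj), List.getElem_replicate]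
      have := h.get j
      rw [e1, List.getD_eq_getElem _ _ (by simpa using hj), List.getElem_map, List.getElem_map] at this
      rw [hr, List.getD_eq_getElem _ _ hj]
      exact act_injective (Equiv.ext fun u => Fin.ext (by rw [this u, map_one]; rfl))
    have hct : HasTab act (wVal e5 (wC.getD (j + 1) [])) (getT centB (j + 1)) := by
      have h := (e5_tabs.map_wVal (ws := wC) tabCent rfl).get (j + 1)
      have hl : j + 1 < wC.length := by simp [wC]; omega
      rw [List.getD_eq_getElem _ _ (by simpa using hl), List.getElem_map] at h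
      rwa [List.getD_eq_getElem _ _ hl]
    have himg : HasTabs act (e5.map (ψ : HeG →* HeG))
        [tA, tAi, tB, tBi, fun u => tX (getT centB (j + 1) u)] := by
      simp only [e5, List.map_cons, List.map_nil, MonoidHom.coe_coe, map_inv, ha, hb, hval]
      refine .cons eA_tab <| .cons (eA_tab.inv invA) <| .cons eB_tab <|
        .cons (eB_tab.inv invB) <| .cons ?_ .nil
      intro u
      rw [map_mul, Equiv.Perm.mul_apply, eX_tab]
      exact congrArg tX (hct u)
    have h2 := himg.wVal r.1
    rw [← map_wVal, hrel, map_one] at h2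
    have hall : ∀ k < 15, wTabs [tA, tAi, tB, tBi, fun u => tX (getT centB (k + 1) u)]
        (rels.getD k ([], 0)).1 = tBreak.getD k [] ∧ (rels.getD k ([], 0)).2 < 2058 := by
      intro k hk
      interval_cases k <;> exact ⟨rfl, by decide⟩
    obtain ⟨he, hu⟩ := hall j (by omega)
    have hb' := rels_break
    rw [List.all_eq_true] at hb'
    have hb' := hb' j (List.mem_range.2 (by omega))
    have := h2 ⟨r.2, hu⟩
    rw [map_one] at this
    change r.2 = trace (wTabs _ r.1) r.2 at this
    rw [he] at this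
    rw [← hr, ← this] at hb'
    simp at hb'
  simp only [e5, List.mem_cons, List.not_mem_nil, or_false]
  rintro g (rfl | rfl | rfl | rfl | rfl) <;> simp only [map_inv, ha, hb, hx]

theorem natCard_out_heG : Nat.card (Cfsg.Out HeG) = 2 := by
  obtain ⟨σ, hσa, hσb⟩ := exists_outer
  refine natCard_out_eq_two σ ?_ fun φ => ?_
  · rintro ⟨g, hg⟩
    apply no_conj_cube g
    rw [← hσa, ← hg, MulAut.conj_apply]
    group
  · obtain ⟨g, hgb, k, hk, hga⟩ := exists_normalised_pow (p := 17) (r := 2) orderOf_eA
      (by rw [card_heG]; norm_num) eB_eA cent_a [1, 3] (by decide) (by decide) (by decide) φ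
    refine ⟨g, ?_⟩
    simp only [List.mem_cons, List.not_mem_nil, or_false] at hk
    rcases hk with rfl | rfl
    · exact Or.inl (fix_trivial (by rw [hga, pow_one]) hgb)
    · right
      have h := fix_trivial (ψ := σ⁻¹ * (MulAut.conj g * φ)) ?_ ?_
      · exact (inv_mul_eq_one.1 h).symm
      · rw [MulAut.mul_apply, hga, ← eA3_eq, ← hσa]
        exact σ.symm_apply_apply eA
      · rw [MulAut.mul_apply, hgb]
        conv_lhs => rw [← hσb]
        exact σ.symm_apply_apply eB

end CfsgLib.SporadicOut.He
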