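import Cfsg.Agent.Lib.SporadicOut.GraphAut
import Cfsg.Agent.Lib.SporadicOut.Rigid
import Cfsg.Agent.Lib.SporadicOut.SuzCheck
import Cfsg.Agent.Lib.SporadicOut.SuzCheckA
import Cfsg.Agent.Lib.SporadicOut.SuzCheckB
import Cfsg.Agent.Lib.SporadicOut.SuzCheckTab
import Cfsg.Agent.Lib.SporadicOut.SuzCheckRel
import Cfsg.Agent.S1694

/-!
The outer automorphism group of the sporadic Suzuki group has order two.
-/

set_option autoImplicit false
set_option maxRecDepth 20000
set_option linter.all false

namespace CfsgLib.SporadicOut.Suz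

open CfsgLib.SporRecognition.CosetCert
open CfsgLib.SporRecognition.Cert.Suz1782 (certified subT subT_spec lab lab_spec tabs)

local instance fact_prime_thirteen_suz : Fact (Nat.Prime 13) := ⟨by norm_num⟩

abbrev suzRels : Set (FreeGroup Cfsg.Spor.Suz.Gen) :=
  Cfsg.Spor.coxRelators Cfsg.Spor.Suz.edges ∪ {r | r ∈ Cfsg.Spor.Suz.extra}

abbrev SuzG : Type := PresentedGroup suzRels

/-- The action on the cosets. -/
noncomputable abbrev act : SuzG →* Equiv.Perm (Fin 1782) := certified.hom

theorem isSuz : Cfsg.IsSuz SuzG := Cfsg.Agent.S1694.result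

theorem simple : IsSimpleGroup SuzG := isSuz.1

theorem card_suzG : Nat.card SuzG = 448345497600 := isSuz.2

instance finite_suzG : Finite SuzG := Nat.finite_of_card_ne_zero (by rw [card_suzG]; norm_num)

theorem act_injective : Function.Injective act := hom_injective certified simple (by norm_num)

/-- The generators. -/
noncomputable def gs : List SuzG :=
  ([.a, .b, .c, .d, .e, .f, .g] : List Cfsg.Spor.Suz.Gen).map (PresentedGroup.of (rels := suzRels))

theorem gs_tabs : HasTabs act gs gts :=
  .cons (hasTab_of certified _) <| .cons (hasTab_of certified _) <| .cons (hasTab_of certified _) <|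
  .cons (hasTab_of certified _) <| .cons (hasTab_of certified _) <| .cons (hasTab_of certified _) <|
  .cons (hasTab_of certified _) .nil

noncomputable def eA : SuzG := wVal gs wA
noncomputable def eB : SuzG := wVal gs wB
noncomputable def eX : SuzG := wVal gs wX

theorem eABX_tab : HasTabs act [eA, eB, eX] [tA, tB, tX] :=
  gs_tabs.map_wVal (ws := [wA, wB, wX]) tabABX rfl

theorem eA_tab : HasTab act eA tA := eABX_tab.get 0
theorem eB_tab : HasTab act eB tB := eABX_tab.get 1
theorem eX_tab : HasTab act eX tX := eABX_tab.get 2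

/-- The derived generators. -/
noncomputable def e5 : List SuzG := [eA, eA⁻¹, eB, eB⁻¹, eX]

theorem e5_tabs : HasTabs act e5 g5 :=
  .cons eA_tab <| .cons (eA_tab.inv invA) <| .cons eB_tab <| .cons (eB_tab.inv invB) <|
  .cons eX_tab .nil

noncomputable def eA2 : SuzG := wVal e5 [0, 0]
noncomputable def eX2 : SuzG := wVal e5 wX2

theorem eA2X2_tab : HasTabs act [eA2, eX2] [tA2, tX2] :=
  e5_tabs.map_wVal (ws := [[0, 0], wX2]) tabA2X2 rfl

theorem eA2_tab : HasTab act eA2 tA2 := eA2X2_tab.get 0
theorem eX2_tab : HasTab act eX2 tX2 := eA2X2_tab.get 1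

theorem eA2_eq : eA2 = eA ^ 2 := by simp [eA2, wVal, e5, pow_two]

/-- The images. -/
noncomputable def eS : List SuzG := [eA2, eA2⁻¹, eB, eB⁻¹, eX2]

theorem eS_tabs : HasTabs act eS gS :=
  .cons eA2_tab <| .cons (eA2_tab.inv invA2) <| .cons eB_tab <| .cons (eB_tab.inv invB) <|
  .cons eX2_tab .nil

theorem realised_stp (j : Nat) :
    ∃ q ∈ act.range, ∀ u : Fin 1782, ((q u : Fin 1782) : Nat) = stp j u := by
  have h : ∀ a : Cfsg.Spor.Suz.Gen,
      ∃ q ∈ act.range, ∀ u : Fin 1782, ((q u : Fin 1782) : Nat) = tabs a true u :=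
    fun a => ⟨_, ⟨PresentedGroup.of a, rfl⟩, hasTab_of certified a⟩
  unfold stp
  cases Nat.blt j 4 <;> cases Nat.blt j 2 <;> cases Nat.beq j 0 <;> cases Nat.beq j 2 <;>
    cases Nat.blt j 6 <;> cases Nat.beq j 4 <;>
    first
      | exact h .a
      | exact h .b
      | exact h .c
      | exact h .d
      | exact h .e
      | exact h .f
      | exact h .g

theorem act_mem_labAut (g : SuzG) : act g ∈ labAut 1782 lbl := fun x y =>
  pairLab_inv (Q := act.range) realised_stp par lab _ 11 down_ok
    (lab_stab certified subT subT_spec lab lab_spec) ⟨g, rfl⟩ x y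

theorem range_le_labAut : act.range ≤ labAut 1782 lbl := by
  rintro _ ⟨g, rfl⟩; exact act_mem_labAut g

/-- The outer permutation. -/
noncomputable def oOne : Equiv.Perm (Fin 1782) where
  toFun u := ⟨tO1 u, by
    have := allBelow_spec invO1 u u.2
    simp only [invStep, Bool.and_eq_true] at this
    simpa [Nat.blt_eq] using this.1⟩
  invFun u := ⟨tO1i u, by
    have := allBelow_spec invO1i u u.2
    simp only [invStep, Bool.and_eq_true] at this
    simpa [Nat.blt_eq] using this.1⟩
  left_inv u := Fin.ext (by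
    have := allBelow_spec invO1 u u.2
    simp only [invStep, Bool.and_eq_true] at this
    exact Nat.eq_of_beq_eq_true this.2)
  right_inv u := Fin.ext (by
    have := allBelow_spec invO1i u u.2
    simp only [invStep, Bool.and_eq_true] at this
    exact Nat.eq_of_beq_eq_true this.2)

theorem oOne_apply (u : Fin 1782) : ((oOne u : Fin 1782) : Nat) = tO1 u := rfl

/-- The images of the generators under the outer automorphism. -/
noncomputable def img : Cfsg.Spor.Suz.Gen → SuzG
  | .a => wVal eS (wGen.getD 0 [])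
  | .b => wVal eS (wGen.getD 1 [])
  | .c => wVal eS (wGen.getD 2 [])
  | .d => wVal eS (wGen.getD 3 [])
  | .e => wVal eS (wGen.getD 4 [])
  | .f => wVal eS (wGen.getD 5 [])
  | .g => wVal eS (wGen.getD 6 [])

theorem exists_outer : ∃ σ : MulAut SuzG, σ eA = eA2 ∧ σ eB = eB ∧
    ∀ g, act (σ g) = oOne * act g * oOne⁻¹ := by
  have h := eS_tabs.map_wVal (ws := wGen) tabImg rfl
  set tabs' : Cfsg.Spor.Suz.Gen → Bool → Nat → Nat := fun a _ => match a with
    | Cfsg.Spor.Suz.Gen.a => tS0 | .b => tS1 | .c => tS2 | .d => tS3 | .e => tS4 | .f => tS5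
    | .g => tS6 with htabs'
  have hinv : ∀ t ∈ imgTs, allBelow 11 1782 (invStep t t 1782) = true := by
    have := img_inv
    rwa [List.all_eq_true] at this
  have hT : TablesOK tabs' 1782 := tablesOK_of_checks (d := 11) fun a b => by
    cases a <;> exact hinv _ (by simp [imgTs, htabs'])
  have hf : ∀ a, HasTab act (img a) (tabs' a true) := by
    intro a
    cases a
    exacts [h.get 0, h.get 1, h.get 2, h.get 3, h.get 4, h.get 5, h.get 6]
  obtain ⟨σ, hσ⟩ := exists_aut certified simple (by norm_num) hT img hf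
    (lift_eq_one_of_coxW (edges := Cfsg.Spor.Suz.edges)
      (pairs := CfsgLib.SporRecognition.Cert.Suz1782.pairs) (extra := Cfsg.Spor.Suz.extra)
      (extraW := CfsgLib.SporRecognition.Cert.Suz1782.extraW) (by decide +kernel) rfl _
      fun w hw => evalW_tabPerm_eq_one hT (by
        have hr := img_rel
        rw [List.all_eq_true] at hr
        exact trace_of_fixStep (hr w (by
          have he : coxW Cfsg.Spor.Suz.edges CfsgLib.SporRecognition.Cert.Suz1782.pairs
            CfsgLib.SporRecognition.Cert.Suz1782.extraW =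
            CfsgLib.SporRecognition.Cert.Suz1782.relW := by decide +kernel
          rwa [he] at hw))))
    (a₀ := .a) (by
      intro h0
      have hb : (List.range 1782).any (fun u => !Nat.beq (tS0 u) u) = true := by decide +kernel
      simp only [List.any_eq_true, List.mem_range, Bool.not_eq_true'] at hb
      obtain ⟨u, hu, hne⟩ := hb
      have he := (hf .a) ⟨u, hu⟩
      rw [h0, map_one] at he
      change u = tS0 u at he
      rw [← he] at hne
      simp at hne)
  have hmap : gs.map (σ : SuzG →* SuzG) = wGen.map (wVal eS) := by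
    simp only [gs, List.map_map, List.map_cons, List.map_nil, Function.comp_apply, MonoidHom.coe_coe,
      hσ]
    rfl
  have hgen : ∀ a, act (σ (PresentedGroup.of a)) * oOne = oOne * act (PresentedGroup.of a) := by
    intro a
    rw [hσ]
    refine Equiv.ext fun u => Fin.ext ?_
    rw [Equiv.Perm.mul_apply, Equiv.Perm.mul_apply, hf a, oOne_apply, oOne_apply,
      hasTab_of certified a u]
    have hc := o_gen
    rw [List.all_eq_true] at hc
    cases a
    exacts [(Nat.eq_of_beq_eq_true (allBelow_spec (hc 0 (by simp)) u u.2)).symm,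
      (Nat.eq_of_beq_eq_true (allBelow_spec (hc 1 (by simp)) u u.2)).symm,
      (Nat.eq_of_beq_eq_true (allBelow_spec (hc 2 (by simp)) u u.2)).symm,
      (Nat.eq_of_beq_eq_true (allBelow_spec (hc 3 (by simp)) u u.2)).symm,
      (Nat.eq_of_beq_eq_true (allBelow_spec (hc 4 (by simp)) u u.2)).symm,
      (Nat.eq_of_beq_eq_true (allBelow_spec (hc 5 (by simp)) u u.2)).symm,
      (Nat.eq_of_beq_eq_true (allBelow_spec (hc 6 (by simp)) u u.2)).symm]
  have hcomp : act.comp (σ : SuzG →* SuzG) = (MulAut.conj oOne).toMonoidHom.comp act := by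
    apply PresentedGroup.ext
    intro a
    show act (σ (PresentedGroup.of a)) = oOne * act (PresentedGroup.of a) * oOne⁻¹
    rw [← hgen, mul_inv_cancel_right]
  have hab := h.map_wVal (ws := [wA, wB]) tabImgAB rfl
  refine ⟨σ, ?_, ?_, fun g => DFunLike.congr_fun hcomp g⟩
  · show (σ : SuzG →* SuzG) eA = eA2
    rw [eA, map_wVal, hmap]
    exact act_injective (Equiv.ext fun u => Fin.ext ((hab.get 0 u).trans (eA2_tab u).symm))
  · show (σ : SuzG →* SuzG) eB = eB
    conv_lhs => rw [eB, map_wVal, hmap]
    exact act_injective (Equiv.ext fun u => Fin.ext ((hab.get 1 u).trans (eB_tab u).symm))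

theorem oOne_normalises : ∀ q ∈ act.range, oOne * q * oOne⁻¹ ∈ act.range := by
  obtain ⟨σ, -, -, hσ⟩ := exists_outer
  rintro _ ⟨g, rfl⟩
  exact ⟨σ g, hσ g⟩

/-- The word between the two outer permutations. -/
noncomputable def eQ : SuzG := wVal gs wQ

theorem eQ_oOne_apply (u : Fin 1782) : ((((act eQ) * oOne) u : Fin 1782) : Nat) = tO0 u := by
  rw [Equiv.Perm.mul_apply, eQ, gs_tabs.wVal wQ, oOne_apply, Nat.eq_of_beq_eq_true (allBelow_spec o0_eq u u.2)]
  rfl

theorem oZero_mem : act eQ * oOne ∈ labAut 1782 lbl := by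
  refine mem_labAut_of_normalizes (Q := act.range) realised_stp par lab _ 11 down_ok
    (lab_stab certified subT subT_spec lab lab_spec) ?_ (Fin.ext ?_) fun u => ?_
  · intro q hq
    have := mul_mem (mul_mem (⟨eQ, rfl⟩ : act eQ ∈ act.range) (oOne_normalises q hq))
      (inv_mem (⟨eQ, rfl⟩ : act eQ ∈ act.range))
    rwa [show act eQ * (oOne * q * oOne⁻¹) * (act eQ)⁻¹ =
      act eQ * oOne * q * (act eQ * oOne)⁻¹ by group] at this
  · rw [eQ_oOne_apply]; exact Nat.eq_of_beq_eq_true o0_zero
  · rw [eQ_oOne_apply]; exact Nat.eq_of_beq_eq_true (allBelow_spec o0_lab u u.2)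

theorem oOne_mem : oOne ∈ labAut 1782 lbl := by
  have := mul_mem (inv_mem (act_mem_labAut eQ)) oZero_mem
  rwa [inv_mul_cancel_left] at this

theorem oOne_notMem : oOne ∉ act.range := by
  intro h
  have h0 : act eQ * oOne ∈ act.range := mul_mem ⟨eQ, rfl⟩ h
  refine notMem_range_of_odd simple (by rw [card_suzG]; norm_num) act ?_ (f := 100) ?_ (by norm_num) h0
  · refine Equiv.ext fun u => Fin.ext ?_
    rw [pow_two, Equiv.Perm.mul_apply, eQ_oOne_apply, eQ_oOne_apply]
    have := allBelow_spec invO0 u u.2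
    simp only [invStep, Bool.and_eq_true] at this
    exact Nat.eq_of_beq_eq_true this.2
  · rw [← Nat.eq_of_beq_eq_true o0_fix, ← ncard_lab (by norm_num), ← Nat.card_coe_set_eq]
    refine Nat.card_congr (Equiv.setCongr ?_)
    ext u
    simp only [Function.mem_fixedPoints, Function.IsFixedPt, Set.mem_setOf_eq, Fin.ext_iff, eQ_oOne_apply]
    cases hb : Nat.beq (tO0 u) u
    · simp only [cond_false, zero_ne_one, iff_false]
      intro he
      rw [he] at hb
      simp at hb
    · simp [Nat.eq_of_beq_eq_true hb]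

theorem realised_of_hasTabs {gl : List SuzG} {ts : List (Nat → Nat)} (h : HasTabs act gl ts) :
    ∀ t ∈ ts, Realised (labAut 1782 lbl) t := by
  induction h with
  | nil => simp
  | cons hg _ ih =>
    intro t ht
    rcases List.mem_cons.1 ht with rfl | ht
    · exact ⟨_, act_mem_labAut _, hg⟩
    · exact ih t ht

theorem realised_centB : ∀ th ∈ centB, Realised (labAut 1782 lbl) th := by
  refine realised_chain (tl := cgTs) ?_ (steps := steps) chain_ok rfl steps_le
  intro t ht
  simp only [cgTs, List.mem_cons, List.not_mem_nil, or_false] at ht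
  have hcg := realised_of_hasTabs (e5_tabs.map_wVal (ws := wCg) tabCg rfl)
  rcases ht with rfl | rfl | rfl | rfl
  exacts [⟨_, act_mem_labAut eB, eB_tab⟩, hcg _ (by simp), hcg _ (by simp), ⟨oOne, oOne_mem, oOne_apply⟩]

theorem cent_a {g : Equiv.Perm (Fin 1782)} (hgL : g ∈ labAut 1782 lbl) (hg : g * act eA = act eA * g) :
    g ∈ (Subgroup.zpowers eA).map act := by
  have h := e5_tabs.map_wVal (ws := (List.range 13).map fun k => List.replicate k 0) tabPow rfl
  obtain ⟨th, hth, he⟩ := exists_tab_of_search eA_tab eA_tab searchA key1A_ok uniqA keyA_ok sepA_ok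
    coverA (realised_of_hasTabs h) (eq_of_beq leavesA_eq) powA_comm hgL hg
  obtain ⟨i, hi, rfl⟩ := List.getElem_of_mem hth
  refine ⟨eA ^ i, Subgroup.npow_mem_zpowers eA i, Equiv.ext fun u => Fin.ext ?_⟩
  have hi' : i < 13 := by simpa [powA] using hi
  have e : wVal e5 (List.replicate i 0) = eA ^ i := by simp [wVal, e5]
  have := h.get i u
  rw [List.getD_eq_getElem _ _ (by simpa using hi'), List.getElem_map, List.getElem_map,
    List.getElem_range, e, getT, List.getD_eq_getElem _ _ hi] at this
  rw [this, he]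

theorem cent_a_group (g : SuzG) (hg : g * eA = eA * g) : g ∈ Subgroup.zpowers eA := by
  obtain ⟨z, hz, he⟩ := cent_a (act_mem_labAut g) (by rw [← map_mul, hg, map_mul])
  rwa [← act_injective he]

theorem cent_b {g : Equiv.Perm (Fin 1782)} (hgL : g ∈ labAut 1782 lbl) (hg : g * act eB = act eB * g) :
    ∃ i < centB.length, ∀ u : Fin 1782, ((g u : Fin 1782) : Nat) = getT centB i u := by
  obtain ⟨th, hth, he⟩ := exists_tab_of_search eB_tab eB_tab searchB key1B_ok uniqB keyB_ok sepB_ok
    coverB realised_centB (eq_of_beq leavesB_eq) centB_comm hgL hg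
  obtain ⟨i, hi, rfl⟩ := List.getElem_of_mem hth
  exact ⟨i, hi, fun u => by rw [he, getT, List.getD_eq_getElem _ _ hi]⟩

theorem no_conj_square (g : SuzG) : g * eA ≠ eA2 * g := by
  intro hg
  obtain ⟨σ, hσa, -, hσ⟩ := exists_outer
  have hO : oOne * act eA = act eA2 * oOne := by
    rw [← hσa, hσ, inv_mul_cancel_right]
  obtain ⟨z, -, hz⟩ := cent_a (g := oOne⁻¹ * act g) (mul_mem (inv_mem oOne_mem) (act_mem_labAut g)) (by
    calc oOne⁻¹ * act g * act eA = oOne⁻¹ * act (g * eA) := by rw [map_mul, mul_assoc]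
      _ = oOne⁻¹ * act eA2 * act g := by rw [hg, map_mul, mul_assoc]
      _ = oOne⁻¹ * (act eA2 * oOne) * (oOne⁻¹ * act g) := by group
      _ = act eA * (oOne⁻¹ * act g) := by rw [← hO]; group)
  apply oOne_notMem
  refine ⟨g * z⁻¹, ?_⟩
  rw [map_mul, map_inv, hz]
  group

theorem eA_ne_one : eA ≠ 1 := fun h => no_conj_square 1 (by simp [eA2_eq, h])

theorem orderOf_eA : orderOf eA = 13 := by
  refine orderOf_eq_prime (act_injective (Equiv.ext fun u => Fin.ext ?_)) eA_ne_one
  rw [map_pow, map_one]
  have : ∀ k : ℕ, ∀ v : Fin 1782, (((act eA) ^ k) v : ℕ) = iter tA k v := by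
    intro k
    induction k with
    | zero => exact fun v => rfl
    | succ k ih => intro v; rw [pow_succ, Equiv.Perm.mul_apply, ih, iter_succ, eA_tab v]
  rw [this]
  exact Nat.eq_of_beq_eq_true (allBelow_spec a_pow u u.2)

theorem eB_eA : eB * eA * eB⁻¹ = eA ^ 4 := by
  rw [mul_inv_eq_iff_eq_mul]
  refine act_injective (Equiv.ext fun u => Fin.ext ?_)
  simp only [pow_succ, pow_zero, one_mul, map_mul, Equiv.Perm.mul_apply]
  rw [eB_tab, eA_tab, eA_tab, eA_tab, eA_tab, eA_tab, eB_tab]
  exact Nat.eq_of_beq_eq_true (allBelow_spec b_conj u u.2)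

theorem eX_eB : eX * eB * eX⁻¹ = eB⁻¹ := by
  rw [mul_inv_eq_iff_eq_mul]
  refine act_injective (Equiv.ext fun u => Fin.ext ?_)
  simp only [map_mul, Equiv.Perm.mul_apply]
  rw [eX_tab, eB_tab, eB_tab.inv invB, eX_tab]
  exact Nat.eq_of_beq_eq_true (allBelow_spec x_conj u u.2)

theorem genIdx (a : Cfsg.Spor.Suz.Gen) :
    ∃ w, PresentedGroup.of (rels := suzRels) a = wVal e5 w := by
  have h := e5_tabs.map_wVal (ws := wGen) tabGen rfl
  have key : ∀ i < 7, gs.getD i 1 = wVal e5 (wGen.getD i []) := fun i hi => by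
    refine act_injective (Equiv.ext fun u => Fin.ext ?_)
    have hl : i < wGen.length := by simp [wGen]; omega
    have := h.get i u
    rw [List.getD_eq_getElem _ _ (by simp; exact hl), List.getElem_map] at this
    rw [gs_tabs.get i u, List.getD_eq_getElem _ _ hl, this]
  cases a
  exacts [⟨_, key 0 (by norm_num)⟩, ⟨_, key 1 (by norm_num)⟩, ⟨_, key 2 (by norm_num)⟩,
    ⟨_, key 3 (by norm_num)⟩, ⟨_, key 4 (by norm_num)⟩, ⟨_, key 5 (by norm_num)⟩,
    ⟨_, key 6 (by norm_num)⟩]

theorem fix_trivial {ψ : MulAut SuzG} (ha : ψ eA = eA) (hb : ψ eB = eB) : ψ = 1 := by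
  refine eq_one_of_fix genIdx ?_
  have hx : ψ eX = eX := by
    have hx' : ψ eX * eB * (ψ eX)⁻¹ = eB⁻¹ := by
      have e := congrArg ψ eX_eB
      simp only [map_mul, map_inv, hb] at e
      exact e
    have hcomm : eX⁻¹ * ψ eX * eB = eB * (eX⁻¹ * ψ eX) := by
      have e1 : ψ eX * eB = eB⁻¹ * ψ eX := mul_inv_eq_iff_eq_mul.1 hx'
      have e2 : eX⁻¹ * eB⁻¹ = eB * eX⁻¹ := by
        rw [← eX_eB]; group
      rw [mul_assoc, e1, ← mul_assoc, e2, mul_assoc]
    obtain ⟨i, hi, hc⟩ := cent_b (act_mem_labAut (eX⁻¹ * ψ eX)) (by rw [← map_mul, hcomm, map_mul])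
    have hval : HasTab act (ψ eX) fun u => tX (getT centB i u) := fun u => by
      show ((act (ψ eX) u : Fin 1782) : Nat) = tX (getT centB i u)
      rw [← hc u, ← eX_tab, ← Equiv.Perm.mul_apply, ← map_mul, mul_inv_cancel_left]
    rcases Nat.eq_zero_or_pos i with rfl | hpos
    · refine act_injective (Equiv.ext fun u => Fin.ext ?_)
      rw [hval u, eX_tab u]
      show tX (tC0 u) = tX u
      rw [show tC0 u = u from by
        have := (getT_tabsChk chain_ok).2 0 (by simp [tChain]) u u.2
        simpa [getT, centB, tChain] using this]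
    exfalso
    obtain ⟨j, rfl⟩ : ∃ j, i = j + 1 := ⟨i - 1, by omega⟩
    have hlen : brk.length + 1 = centB.length := by decide +kernel
    have hj : j < brk.length := by omega
    have hlt := brk_lt
    rw [List.all_eq_true] at hlt
    have hp := hlt _ (List.getD_eq_getElem brk (0, 0) hj ▸ List.getElem_mem hj :
      brk.getD j (0, 0) ∈ brk)
    simp only [Bool.and_eq_true, Nat.blt_eq] at hp
    set p := brk.getD j (0, 0) with hp'
    have hR : relW.length = (List.replicate _ fun u : Nat => u).length :=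
      (List.length_map (as := relW) (wTabs g5)).symm.trans (getT_tabsChk tabRel).1
    have hrel : wVal e5 (relW.getD p.1 []) = 1 := by
      have hl : p.1 < relW.length := by simpa [relW] using hp.2
      have h := (e5_tabs.map_wVal (ws := relW) tabRel rfl).get p.1
      refine act_injective (Equiv.ext fun u => Fin.ext ?_)
      have := h u
      rw [List.getD_eq_getElem _ _ (by simpa using hl), List.getElem_map, getT,
        List.getD_eq_getElem _ _ (by rw [hR] at hl; exact hl), List.getElem_replicate] at this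
      rw [List.getD_eq_getElem _ _ hl, this, map_one]
      rfl
    have himg : HasTabs act (e5.map (ψ : SuzG →* SuzG))
        [tA, tAi, tB, tBi, fun u => tX (getT centB (Nat.add j 1) u)] := by
      simp only [e5, List.map_cons, List.map_nil, MonoidHom.coe_coe, map_inv, ha, hb]
      exact .cons eA_tab <| .cons (eA_tab.inv invA) <| .cons eB_tab <|
        .cons (eB_tab.inv invB) <| .cons hval .nil
    have h2 := himg.wVal (relW.getD p.1 [])
    rw [← map_wVal, hrel, map_one] at h2
    have hb' := rels_break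
    rw [List.all_eq_true] at hb'
    have hb' := hb' j (List.mem_range.2 (by simpa [brk] using hj))
    have := h2 ⟨p.2, hp.1⟩
    rw [map_one] at this
    change p.2 = trace _ p.2 at this
    rw [← hp', ← this] at hb'
    simp at hb'
  simp only [e5, List.mem_cons, List.not_mem_nil, or_false]
  rintro g (rfl | rfl | rfl | rfl | rfl) <;> simp only [map_inv, ha, hb, hx]

theorem natCard_out_suzG : Nat.card (Cfsg.Out SuzG) = 2 := by
  obtain ⟨σ, hσa, hσb, -⟩ := exists_outer
  refine natCard_out_eq_two σ ?_ fun φ => ?_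
  · rintro ⟨g, hg⟩
    apply no_conj_square g
    rw [← hσa, ← hg, MulAut.conj_apply]
    group
  · obtain ⟨g, hgb, k, hk, hga⟩ := exists_normalised_pow (p := 13) (r := 4) orderOf_eA
      (by rw [card_suzG]; norm_num) eB_eA cent_a_group [1, 2] (by decide) (by decide) (by decide) φ
    refine ⟨g, ?_⟩
    simp only [List.mem_cons, List.not_mem_nil, or_false] at hk
    rcases hk with rfl | rfl
    · exact Or.inl (fix_trivial (by rw [hga, pow_one]) hgb)
    · right
      have h := fix_trivial (ψ := σ⁻¹ * (MulAut.conj g * φ)) ?_ ?_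
      · exact (inv_mul_eq_one.1 h).symm
      · rw [MulAut.mul_apply, hga, ← eA2_eq, ← hσa]
        exact σ.symm_apply_apply eA
      · rw [MulAut.mul_apply, hgb]
        conv_lhs => rw [← hσb]
        exact σ.symm_apply_apply eB

end CfsgLib.SporadicOut.Suz
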